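import Cfsg.Agent.Lib.SzS.L

/-!
# A standard subgroup `Sz(8)`: the case `|R| = 2` with `[W, R]` elementary
-/

set_option autoImplicit false
set_option linter.unusedSectionVars false

namespace Cfsg.Lib.SzS

open Subgroup Cfsg.Lib.RI

variable {G : Type*} [Group G] [Finite G] {L R Q T Y : Subgroup G} {u : F8 → F8 → G} {d g k l n o s t w x y : G} {b c e μ ν : F8}
  {S : AddSubgroup F8} {ρ : S → G} {v : F8 → G} {γ γ' : S × F8 × F8 → S × F8 × F8} {φ φ' : F8 → F8} {p p' : S × F8 × F8}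

namespace CW

section

variable (h : CW L R u d g S ρ v c e) (hS : ∀ x, x ∈ S ↔ x = 0 ∨ x = 1)
include h hS

theorem conjT (t : TT L s) (h2 : IsPGroup 2 Q) (hQ : ∀ x ∈ Q, Commute x s) (ms : s ∈ Q) :
    ∃ g, cj g s = ρ (one hS) ∧ ∀ x ∈ Q, cj g x ∈ h.P := by
  obtain ⟨t2, t1, g, hg⟩ := t
  obtain ⟨n, m, f⟩ := h.conjP' h2 (g := g) fun x a => h.cenN t2 t1 hg (hQ x a)
  obtain ⟨r, e⟩ := h.rs _ (h.PK (f s ms) (cj_cj n g s ▸ (cjK m).2 hg))
  exact ⟨_, by rw [e, eq_one hS (r := r) (by rintro rfl; exact t1 (cj_eq_one.1 (e.trans h.r0)))], f⟩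

omit hS in
theorem nonT (m : cj k x ∈ h.P) (x2 : x * x = 1) (n : ¬ TT L x) : cj k x ∈ h.Z := by
  obtain ⟨r, b, e⟩ := h.ofP m (cj_mul_self x2 k)
  obtain rfl : r = 0 := by_contra fun f => n (TT.of_cj (e ▸ h.TA f b))
  exact ⟨b, by rw [e, h.r0, one_mul]⟩

omit hS in
theorem act1 : h.Act 1 id id := ⟨fun _ => ⟨0, by simp [h.u0]⟩, fun _ => one_cj _⟩

omit hS in
theorem inv_el (p : S × F8 × F8) (b : F8) : ∃ i, (h.el p * u 0 b)⁻¹ = h.el p * u 0 i :=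
  ⟨_, inv_eq_of_mul_eq_one_right (by rw [← h.zz, ← mul_assoc (h.el p), ← mul_assoc, h.el_sq, h.z2])⟩

omit hS in
theorem mul_el (p p' : S × F8 × F8) (b b' : F8) : ∃ i, h.el p * u 0 b * (h.el p' * u 0 b') = h.el (p + p') * u 0 i :=
  have ⟨_, e⟩ := h.el_mul p p'
  ⟨_, by rw [(h.cZ (h.elW _) b).symm.mul_mul_mul_comm, e, h.zz, mul_assoc, h.zz]⟩

end

variable (h : CW L R u d g S ρ v 0 0) (hS : ∀ x, x ∈ S ↔ x = 0 ∨ x = 1)
include h hS

local notation "𝐇" => normalizer (h.A : Set G)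
local notation "𝐌" => normalizer (h.W : Set G)
local notation "𝐭" => ((one hS, 0, 0) : S × F8 × F8)

variable {h} in
theorem Act.t0 (a : h.Act n γ φ) : γ 𝐭 = (one hS, (γ 𝐭).2.1, (γ 𝐭).2.1 ^ 5) := by
  have i := h.TTr hS (a.tt hS 0)
  have := a.q 𝐭
  simp only [qq, i, a.z0, add_zero, zero_mul, mul_zero, one_mul, ne_eq, OfNat.ofNat_ne_zero, not_false_eq_true, zero_pow] at this
  exact Prod.ext i (Prod.ext rfl (by grind))

theorem TO (m : n ∈ 𝐌) (m' : n ∉ 𝐇) (y b : F8) : TT L (h.el (one hS, y, y ^ 5) * u 0 b) := by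
  by_cases e : y = 0
  · simpa [e] using h.act1.tt hS b
  obtain ⟨γ, φ, a⟩ := h.exAct m
  have := a.cand m' (one0 hS)
  rw [a.t0 hS] at this
  obtain ⟨l, l0, rfl, f⟩ := (by decide : ∀ x y : F8, x ^ 5 ≠ 0 → y ≠ 0 → ∃ l ≠ 0, y = l * (l * (l * x)) ∧ y ^ 5 = l * x ^ 5) _ y this e
  obtain ⟨k, -, a'⟩ := h.actl l0
  have := (a'.mul a).tt hS b
  rwa [Function.comp, a.t0 hS, ← f] at this

variable (TO : ∀ y b, TT L (h.el (one hS, y, y ^ 5) * u 0 b))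
include TO

variable {h} in
theorem Act.aE (a : h.Act n γ φ) (x : F8) : γ (0, 0, x) = (0, 0, φ x) := by
  have q := a.q (0, 0, x)
  have i : (γ (0, 0, x)).1 = 0 := by_contra fun f => by
    obtain ⟨j, k⟩ := a.el' (0, 0, x) 0
    refine h.MT hS (h.mM 0 x 0) (TT.of_cj (g := n) ?_)
    rw [k, show γ (0, 0, x) = (one hS, (γ (0, 0, x)).2.1, (γ (0, 0, x)).2.1 ^ 5) from Prod.ext (eq_one hS f) (Prod.ext rfl ?_)]
    · exact TO _ j
    simp only [qq, eq_one hS f, a.z0, add_zero, zero_mul, mul_zero, one_mul, ne_eq, OfNat.ofNat_ne_zero, not_false_eq_true, zero_pow,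
      ZeroMemClass.coe_zero] at q
    grind
  have j : (γ (0, 0, x)).2.1 = 0 := by simpa [qq, i, a.z0] using q
  have := a.bt 𝐭 (0, 0, x)
  rw [a.t0 hS, i, j] at this
  exact Prod.ext i (Prod.ext j (by simpa [bb] using this))

variable {h} in
theorem Act.aM (a : h.Act n γ φ) (y x : F8) : (γ (0, y, x)).1 = 0 := by
  have := a.bt (0, y, x) (0, 0, 1)
  rw [a.aE hS TO] at this
  simpa [bb, a.z0, a.zinj.eq_iff' a.z0] using this

theorem cz2 (m : s ∈ 𝐌) (t2 : Two s) (b : F8) : Commute s (u 0 b) := by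
  refine two_ind (p := fun x => ∀ b, Commute x (u 0 b)) (fun _ => Commute.one_left _) (fun i f b => ?_) t2 b
  obtain ⟨γ, φ, a⟩ := h.exAct (pow_mem m i)
  refine cj_eq_iff.1 ((a.z b).trans (congrArg _ (fix_of (ψ := fun y => (γ (0, y, 0)).2.1) a.zadd (fun x y => ?_) (fun y => ?_) (fun b => ?_) b)))
  · simpa using congrArg (·.2.1) (a.add (0, x, 0) (0, y, 0))
  · simpa [qq, a.aM hS TO] using (a.q (0, y, 0)).symm
  · exact (h.inj (by rw [← a.z, ← a.z, cj_cj, cj_of_comm (f b)])).2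

theorem TW0 (m : s ∈ 𝐌) (t : TT L s) : s ∈ h.W := by
  refine h.twoW (by_contra fun n => ?_) (two_of_sq t.1)
  obtain ⟨γ, φ, a⟩ := h.exAct m
  have z := h.cz2 hS TO m (two_of_sq t.1)
  obtain rfl : φ = id := funext fun b => (h.inj ((a.z b).symm.trans (cj_of_comm (z b)))).2
  have := a.cand n (one0 hS)
  rw [a.t0 hS] at this
  obtain ⟨y, f⟩ := (by decide : ∀ x : F8, x ^ 5 ≠ 0 → ∃ y, x ^ 4 * y + x * y ^ 4 ≠ 0) _ this
  have i := a.aM hS TO y 0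
  have j : (γ (0, y, 0)).2.1 = y := (by decide : ∀ x y : F8, x ^ 5 = y ^ 5 → x = y) _ _ (by simpa [qq, i] using a.q (0, y, 0))
  have k := a.bt 𝐭 (0, y, 0)
  rw [a.t0 hS, i, j] at k
  replace k : (γ (0, y, 0)).2.2 ≠ 0 := fun e => f (by simpa [bb, e] using k)
  obtain ⟨b₁, e₁⟩ := a.el' (0, y, 0) 0
  obtain ⟨b₂, e₂⟩ := h.inv_el (0, y, 0) 0
  obtain ⟨b₃, e₃⟩ := h.mul_el (0, y, 0) (γ (0, y, 0)) b₂ b₁
  rw [← e₁, ← e₂, show (0, y, 0) + γ (0, y, 0) = (0, 0, (γ (0, y, 0)).2.2) from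
    Prod.ext (by simp [i]) (Prod.ext (by simp [j, a2]) (zero_add _))] at e₃
  have e2 := (h.el_sq (0, 0, (γ (0, y, 0)).2.2) b₃).trans (show _ = 1 by simp [qq, h.u0])
  obtain ⟨g, -, hg⟩ := h.conjT hS t (Q := (zpowers s ⊔ h.W) ⊓ centralizer {s}) ((pg_zp (two_of_sq t.1)).to_sup_of_normal_right' h.W2
    (zpowers_le.2 m)).to_inf_left (fun x a => mem_centralizer_singleton_iff.1 a.2) ⟨mem_sup_left (mem_zpowers s),
      mem_centralizer_singleton_iff.2 rfl⟩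
  obtain ⟨b₄, e₄⟩ := (cj_norm (norm_of (Q := h.Z) (by
    rintro _ ⟨b, rfl⟩
    exact h.AZ (hg _ ⟨mem_sup_right (h.zW b), mem_centralizer_singleton_iff.2 (z b).symm⟩)))).1 (h.nonT (hg _ ⟨mem_sup_right
      (h.MW (h.mM _ _ _)), mem_centralizer_singleton_iff.2 (cj_eq_iff.1 (by
        rw [eq_inv_of_mul_eq_one_left e2]; nth_rewrite 1 [← eq_inv_of_mul_eq_one_left e2]
        rw [← e₃, cj_mul, cj_inv, cj_sq t.1, mul_inv_rev, inv_inv])).symm⟩) e2 (h.MT hS (h.mM _ _ _)))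
  obtain ⟨b₅, e₅⟩ := h.elz b₄
  exact k (congrArg (·.2.2) (h.el_inj (e₄.trans e₅)).1)

theorem gen (f : ∀ x ∈ h.W, TT L x → x ∈ Y) : h.W ≤ Y := by
  have a : ∀ p p', (∀ b, h.el p * u 0 b ∈ Y) → (∀ b, h.el p' * u 0 b ∈ Y) → ∀ b, h.el (p + p') * u 0 b ∈ Y := fun p p' i j b => by
    obtain ⟨k, e⟩ := h.mul_el p p' 0 0
    have := mul_mem (i 0) (j (0 + (k + b)))
    rwa [← h.zz, ← mul_assoc (h.el p'), ← mul_assoc, e, mul_assoc, h.zz, ← add_assoc, a2, zero_add] at this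
  have o := fun y b => f _ (mul_mem (h.elW _) (h.zW b)) (TO y b)
  have k : ∀ y x b, h.el (one hS, y, x) * u 0 b ∈ Y := fun y x b => by
    obtain ⟨i, j, k, rfl, rfl⟩ := (by decide +kernel : ∀ y x : F8, ∃ i j k, y = i + j + k ∧ x = i ^ 5 + j ^ 5 + k ^ 5) y x
    simpa [h.s2] using a _ _ (a _ _ (o i) (o j)) (o k) b
  intro w m
  obtain ⟨⟨r, y, x⟩, b, rfl⟩ := h.exEl m
  by_cases e : r = 0
  · simpa [h.s2, e] using a _ _ (k y x) (k 0 0) b
  · exact eq_one hS e ▸ k y x b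

theorem case0 [IsSimpleGroup G] (hG : ¬ IsMulCommutative G) : False := by
  obtain ⟨T, hT⟩ := h.W2.exists_le_sylow
  have le : (T : Subgroup G) ≤ 𝐌 := sylow_le T fun y _ k => norm_of (h.gen hS TO (Y := h.W.comap (MulAut.conj y).toMonoidHom)
    fun x a b => h.TW0 hS TO (k x (le_normalizer a) (hT a)) (b.cj y))
  have z := fun x (m : x ∈ (T : Subgroup G)) => h.cz2 hS TO (le m) (two_of T.2 m)
  have ex : ∀ x : T, ∃ b, cj (x : G) (h.el (0, 0, 1)) = h.el (0, 0, 1) * u 0 b := fun x => by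
    obtain ⟨γ, φ, a⟩ := h.exAct (le x.2)
    have := a.el (0, 0, 1)
    rwa [a.aE hS TO, (h.inj ((a.z 1).symm.trans (cj_of_comm (z _ x.2 1)))).2] at this
  choose β e using ex
  let f : T →* Multiplicative F8 := MonoidHom.mk' (fun x => .ofAdd (tr (β x))) fun x y => congrArg Multiplicative.ofAdd (by
    have := e (x * y)
    rw [coe_mul, ← cj_cj, e, cj_mul, e, cj_of_comm (z _ x.2 _), mul_assoc, h.zz] at this
    rw [← (h.el_inj this).2]; simp only [tr, toAdd_ofAdd]; grind)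
  have mk : ∀ x : T, (x : G) ∈ f.ker.map (T : Subgroup G).subtype ↔ tr (β x) = 0 := fun x => mem_map_iff_mem (subtype_injective _)
  obtain ⟨g, a, b⟩ := thompson hG T (Y := f.ker.map (T : Subgroup G).subtype) (fun x a y b i j => (mk (⟨x, a⟩ * ⟨y, b⟩)).2
    ((congrArg Multiplicative.toAdd (f.map_mul _ _)).trans ((by decide : ∀ a b, tr a ≠ 0 → tr b ≠ 0 → tr a + tr b = 0) _ _
      (mt (mk ⟨x, a⟩).2 i) (mt (mk ⟨y, b⟩).2 j)))) (h.TR hS).1
  have t := (h.TR hS).cj g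
  obtain ⟨p, i, k⟩ := h.exEl (h.TW0 hS TO (le b) t)
  have := h.el_cj p (0, 0, 1) i 0
  rw [← k, h.u0, mul_one, e ⟨_, b⟩, h.TTr hS (k ▸ t)] at this
  exact absurd ((h.el_inj this).2 ▸ (mk ⟨_, b⟩).1 a) (by simp [bb]; decide)

end CW

end Cfsg.Lib.SzS
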