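import Cfsg.Agent.Lib.SzS.M0
import Cfsg.Agent.Lib.SzS.I

/-!
# A standard subgroup `Sz(8)`: the case `|R| = 2` with `[W, R]` homocyclic
-/

set_option autoImplicit false
set_option linter.unusedSectionVars false

namespace Cfsg.Lib.SzS

open Subgroup Cfsg.Lib.RI

variable {G : Type*} [Group G] [Finite G] {L R Q T Y : Subgroup G} {u : F8 → F8 → G} {d g k l n o s t w x y : G} {b c e μ ν : F8}
  {S : AddSubgroup F8} {ρ : S → G} {v : F8 → G} {γ γ' : S × F8 × F8 → S × F8 × F8} {φ ψ : F8 → F8} {p p' : S × F8 × F8}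

theorem det_sub (ι : Multiplicative (Fin 3 → ZMod 4) →* G) (inj : Function.Injective ι) : ∃ Y : Subgroup G,
    (∀ x ∈ normalizer (ι.range : Set G), ∀ y ∈ normalizer (ι.range : Set G), x ∉ Y → y ∉ Y → x * y ∈ Y) ∧
      ∀ s, (∀ e ∈ ι.range, cj s e = e⁻¹) → s ∉ Y := by
  choose F e using fun (n : normalizer (ι.range : Set G)) a => (cj_norm n.2).2 (⟨.ofAdd a, rfl⟩ : _ ∈ ι.range)
  let f : normalizer (ι.range : Set G) →* Module.End (ZMod 4) (Fin 3 → ZMod 4) :=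
    ⟨⟨fun n => (AddMonoidHom.mk' (fun a => (F n a).toAdd) fun a b => congrArg Multiplicative.toAdd (inj (by
      rw [map_mul, e, e, e, ← cj_mul, ← map_mul]; rfl) : _ = F n a * F n b)).toZModLinearMap 4,
      LinearMap.ext fun a => congrArg Multiplicative.toAdd (inj ((e 1 a).trans (one_cj _)))⟩, fun x y => LinearMap.ext fun a =>
        congrArg Multiplicative.toAdd (inj ((e _ a).trans ((cj_cj _ _ _).symm.trans ((congrArg (cj (x : G)) (e y a).symm).trans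
          (e x (F y a).toAdd).symm))))⟩
  let D := LinearMap.det.comp f
  have mk : ∀ x : normalizer (ι.range : Set G), (x : G) ∈ D.ker.map (Subgroup.subtype _) ↔ D x = 1 := fun x =>
    mem_map_iff_mem (subtype_injective _)
  refine ⟨D.ker.map (Subgroup.subtype _), fun x a y b i j => (mk (⟨x, a⟩ * ⟨y, b⟩)).2 ((D.map_mul _ _).trans
    ((by decide : ∀ a a' b b' : ZMod 4, a * a' = 1 → b * b' = 1 → a ≠ 1 → b ≠ 1 → a * b = 1) _ (D ⟨x, a⟩⁻¹) _ (D ⟨y, b⟩⁻¹)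
      (by rw [← map_mul, mul_inv_cancel, map_one]) (by rw [← map_mul, mul_inv_cancel, map_one]) (mt (mk ⟨x, a⟩).2 i)
      (mt (mk ⟨y, b⟩).2 j))), ?_⟩
  rintro _ a ⟨s, b, rfl⟩
  have : f s = (-1 : ZMod 4) • LinearMap.id := LinearMap.ext fun x => by
    rw [LinearMap.smul_apply, neg_one_smul]
    exact congrArg Multiplicative.toAdd (inj ((e s x).trans ((a _ ⟨_, rfl⟩).trans (map_inv ι _).symm)))
  have b : LinearMap.det (f s) = 1 := b
  have : Nontrivial (ZMod 4) := ⟨⟨0, 1, by decide⟩⟩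
  rw [‹f s = _›, LinearMap.det_smul, LinearMap.det_id, Module.finrank_fin_fun] at b
  exact absurd b (by decide)

theorem mul_mem_of_card (h : Q ≤ T) (c : Nat.card T ≤ 2 * Nat.card Q) (a : x ∈ T) (b : y ∈ T) (i : x ∉ Q) (j : y ∉ Q) : x * y ∈ Q := by
  have e := Transfer.card_mul_relIndex h
  have p : 0 < Nat.card Q := Nat.card_pos
  have p' : 0 < Nat.card T := Nat.card_pos
  have n : Q.relIndex T ≠ 1 := fun f => i (relIndex_eq_one.1 f a)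
  have : Q.relIndex T = 2 := by
    obtain f | f | f | f : Q.relIndex T = 0 ∨ Q.relIndex T = 1 ∨ Q.relIndex T = 2 ∨ 3 ≤ Q.relIndex T := by omega
    exacts [by rw [f] at e; omega, absurd f n, f, by nlinarith]
  exact (mul_mem_iff_of_index_two this (a := ⟨x, a⟩) (b := ⟨y, b⟩)).2 (iff_of_false i j)

theorem F8.ind {p : F8 → Prop} (a : p 1) (b : p ω) (c : p (ω ^ 2)) (h : ∀ x y, p x → p y → p (x + y)) (x : F8) : p x := by
  rcases (by decide : ∀ x : F8, x = 1 + 1 ∨ x = 1 ∨ x = ω ∨ x = ω ^ 2 ∨ x = 1 + ω ∨ x = 1 + ω ^ 2 ∨ x = ω + ω ^ 2 ∨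
    x = 1 + ω + ω ^ 2) x with rfl | rfl | rfl | rfl | rfl | rfl | rfl | rfl <;> apply_rules

/-- the commutator map of `U` -/
def B (x y : F8) : F8 := x ^ 4 * y + x * y ^ 4
/-- the map induced on the commutators -/
def lam2 (ψ : F8 → F8) : F8 → F8 := lin (B (ψ ω) (ψ (ω ^ 2))) (B (ψ 1) (ψ (ω ^ 4))) (B (ψ 1) (ψ ω))

theorem ck10 : ∀ p q r, (∀ y, lin p q r (lin p q r y) = y) → (¬ ∀ b, lam2 (lin p q r) b = b) → ∃ y w, w = B y (lin p q r y) ∧ w ≠ 0 ∧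
    lam2 (lin p q r) w = w ∧ (∀ ζ, lam2 (lin p q r) ζ = ζ → (∃ η, ζ = η + lam2 (lin p q r) η) ∨ ∃ η, ζ = w + η + lam2 (lin p q r) η) ∧
    (∃ y', lin p q r y' = y' ∧ B y' (y + lin p q r y) ≠ 0) ∧ ∃ x, x + lam2 (lin p q r) x ≠ 0 ∧ w ≠ x + lam2 (lin p q r) x := by
  decide +kernel

namespace CW

variable (h : CW L R u d g S ρ v 1 0) (hS : ∀ x, x ∈ S ↔ x = 0 ∨ x = 1)
include h hS

local notation "𝐇" => normalizer (h.A : Set G)
local notation "𝐌" => normalizer (h.W : Set G)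
local notation "𝐏" => normalizer (h.M : Set G)
local notation "𝐭" => ((one hS, 0, 0) : S × F8 × F8)
local notation "𝐚" y:max => h.el (0, y, y ^ 5) * u 0 0

theorem TT1 (t : TT L (h.el p * u 0 b)) : p = (one hS, 0, p.2.2) := by
  have i := h.TTr hS t
  have := (h.eq1 ((h.el_sq p b).symm.trans t.1)).2
  exact Prod.ext i (Prod.ext (by simpa [qq, i, a2] using this) rfl)

theorem TO1 (m : n ∈ 𝐌) (m' : n ∉ 𝐇) (x b : F8) : TT L (h.el (one hS, 0, x) * u 0 b) := by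
  by_cases e : x = 0
  · simpa [e] using h.act1.tt hS b
  obtain ⟨γ, φ, a⟩ := h.exAct m
  have n := a.cand m' (one0 hS)
  obtain ⟨k, -, a'⟩ := h.actl (div_ne_zero e n)
  have := (a'.mul a).tt hS b
  rw [Function.comp, h.TT1 hS (a.tt hS 0)] at this
  simpa [div_mul_cancel₀ _ n] using this

omit hS in
theorem cH (c : ∀ r, Commute n (ρ r)) (e : cj n (u 0 ν) = u 0 μ) (hν : ν ≠ 0) : n ∈ 𝐇 := h.PH fun x m => by
  obtain ⟨r, r0⟩ := h.ex0
  obtain ⟨r', i, j, rfl⟩ := h.exP m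
  obtain ⟨i, j, f⟩ := h.nU (h.tight _ (h.rK r) n (h.r2 r) (mt (h.ri r) r0) (by rw [cj_of_comm (c r)]; exact h.rK r)) hν e i j
  rw [cj_mul, f, cj_of_comm (c r')]
  exact h.mP' _ _ _

theorem cT (c : Commute n (ρ (one hS))) (r : S) : Commute n (ρ r) := by
  by_cases e : r = 0
  exacts [by rw [e, h.r0]; exact .one_right n, eq_one hS e ▸ c]

omit hS in
theorem comP (m : x ∈ h.P) (m' : y ∈ h.P) (c : Commute x y) : x * x = 1 ∨ y * y = 1 ∨ x * x = y * y := by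
  obtain ⟨r, i, j, rfl⟩ := h.exP m
  obtain ⟨r', i', j', rfl⟩ := h.exP m'
  have := (h.inj3 ((h.mu2 ..).symm.trans (c.eq.trans (h.mu2 ..)))).2.2
  rw [h.sqP, h.sqP]
  obtain rfl | rfl | rfl := (by decide : ∀ a b : F8, a ^ 4 * b = b ^ 4 * a → a = 0 ∨ b = 0 ∨ a = b) i i' (by grind) <;> simp [h.u0]

omit hS in
theorem cE (m : x ∈ h.E) (m' : w ∈ h.M) : Commute x w := by
  obtain ⟨i, j, rfl⟩ := h.exE m
  obtain ⟨i', j', k', rfl⟩ := h.exM m'
  exact cj_eq_iff.1 (by rw [h.el_cj]; simp [bb])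

omit hS in
theorem PE (m : s ∈ 𝐏) (mx : x ∈ h.E) : cj s x ∈ h.E := by
  obtain ⟨y, i, j, f⟩ := h.exM ((cj_norm m).2 (h.EM mx))
  obtain rfl : y = 0 := (by decide : ∀ a : F8, (∀ y, a ^ 4 * y + a * y ^ 4 = 0) → a = 0) y fun y' => by
    have := cj_of_comm (commute_cj_left.2 (h.cE mx ((cj_norm (inv_mem m)).2 (h.mM y' 0 0))))
    rw [f, h.el_cj] at this
    simpa [bb] using (h.el_inj this).2
  exact f ▸ h.mE i j

omit hS in
theorem exψ (m : s ∈ 𝐏) : ∃ ψ φ : F8 → F8, (∀ b, cj s (u 0 b) = u 0 (φ b)) ∧ (∀ y, ∃ i, cj s (𝐚 y) = 𝐚 (ψ y) * u 0 i) ∧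
    (∀ x, ∃ i, cj s (h.el (0, 0, x)) = h.el (0, 0, φ x) * u 0 i) ∧ ∀ y y', φ (B y y') = B (ψ y) (ψ y') := by
  choose φ β e using fun x => h.exE (h.PE m (h.mE x 0))
  choose ψ χ β' e' using fun y => h.exM ((cj_norm m).2 (h.mM y (y ^ 5) 0))
  have z : ∀ b, cj s (u 0 b) = u 0 (φ b) := fun b => by
    have := h.el_sq (0, 0, φ b) (β b)
    rw [← e, ← cj_mul, h.el_sq] at this
    simpa [qq] using this
  obtain rfl : χ = fun y => ψ y ^ 5 := funext fun y => by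
    have := h.el_sq (0, ψ y, χ y) (β' y)
    rw [← e', ← cj_mul, h.el_sq, show qq _ _ _ _ _ = 0 by simp [qq, a2], h.u0, cj_one] at this
    have := (h.eq1 this.symm).2
    simp only [qq, ZeroMemClass.coe_zero] at this
    grind
  refine ⟨ψ, φ, z, fun y => ⟨β' y, by rw [e', h.u0, mul_one]⟩, fun x => ⟨_, by rw [← e, h.u0, mul_one]⟩, fun y y' => ?_⟩
  have := congrArg (cj s) (h.el_cj (0, y, y ^ 5) (0, y', y' ^ 5) 0 0)
  rw [cj_cj', e', e', h.el_cj, ← h.zz 0, ← mul_assoc, cj_mul, e', z, mul_assoc, h.zz] at this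
  simpa [bb, B] using (h.el_inj this).2.symm

omit hS in
theorem Q2 (m : s ∈ 𝐏) (s2 : s * s = 1) : IsPGroup 2 ↥((zpowers s ⊔ h.M) ⊓ centralizer {s}) :=
  ((pg_zp (two_of_sq s2)).to_sup_of_normal_right' (h.W2.to_le h.MW) (zpowers_le.2 m)).to_inf_left

theorem conjM (m : s ∈ 𝐏) (t : TT L s) : ∃ g, cj g s = ρ (one hS) ∧ ∀ x ∈ h.M, cj s x = x → cj g x ∈ h.P :=
  have ⟨g, a, b⟩ := h.conjT hS t (h.Q2 m t.1) (fun _ a => mem_centralizer_singleton_iff.1 a.2)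
    ⟨mem_sup_left (mem_zpowers s), mem_centralizer_singleton_iff.2 rfl⟩
  ⟨g, a, fun x i j => b x ⟨mem_sup_right i, mem_centralizer_singleton_iff.2 (cj_eq_iff.1 j).symm⟩⟩

theorem KZ (m : s ∈ 𝐏) (t : TT L s) (b : F8) : Commute s (u 0 b) := by
  obtain ⟨ψ, φ, z, ea, ee, eb⟩ := h.exψ m
  have zM := fun b => h.EM (h.zE b)
  have pp : ∀ y, ψ (ψ y) = y := fun y => by
    obtain ⟨i, e⟩ := ea y
    obtain ⟨j, e'⟩ := ea (ψ y)
    have := cj_sq t.1 (𝐚 y)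
    rw [e, cj_mul, e', z, mul_assoc, mul_assoc, h.zz, h.zz] at this
    exact congrArg (·.2.1) (h.el_inj this).1
  have za : ∀ a b, φ (a + b) = φ a + φ b := fun a b => (h.inj (by rw [← z, ← h.zz, ← h.zz, cj_mul, z, z])).2
  have l := funext (eq_lin (φ := ψ) fun a b => (by decide : ∀ a b : F8, (∀ y, B (a + b) y = 0) → a = b) _ _ fun y => by
    have i := za (B a (ψ y)) (B b (ψ y))
    rw [show B a (ψ y) + B b (ψ y) = B (a + b) (ψ y) by unfold B; grind, eb, eb, eb, pp] at i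
    unfold B at i ⊢; grind)
  have l' : lam2 ψ = φ := funext fun x => by
    rw [eq_lin za, lam2, ← eb, ← eb, ← eb, show B ω (ω ^ 2) = 1 by decide, show B 1 (ω ^ 4) = ω by decide, show B 1 ω = ω ^ 2 by decide]
  by_contra n
  have := ck10 (ψ 1) (ψ ω) (ψ (ω ^ 2))
  rw [← l, l'] at this
  obtain ⟨y, w, ew, w0, w1, cs, ⟨y', e1, e2⟩, x, x0, x1⟩ := this pp fun f => n (cj_eq_iff.1 (by rw [z, f]))
  obtain ⟨g, gs, gP⟩ := h.conjM hS m t
  obtain ⟨ζ, e⟩ := ee w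
  rw [w1] at e
  have fx : ∀ {x i}, cj s x = x * u 0 i → φ i = i := fun {x i} e => by
    have := cj_sq t.1 x
    rw [e, cj_mul, e, z, mul_assoc, h.zz, mul_eq_left] at this
    have := (h.eq1 this).2
    grind
  have sw : ∀ η, h.el (0, 0, w) * u 0 η * (h.el (0, 0, w) * u 0 η) = u 0 w := fun η => (h.el_sq _ η).trans (by simp [qq])
  obtain ⟨η, rfl⟩ | ⟨η, rfl⟩ := cs ζ (fx e)
  · obtain ⟨i, f⟩ := ee x
    have m1 := h.mE x 0
    rw [h.u0, mul_one] at m1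
    have m2 := mul_mem m1 (h.PE m m1)
    have := h.comP (gP _ (h.mM 0 w η) (by rw [cj_mul, e, z, mul_assoc, h.zz, add_assoc, a2, add_zero])) (gP _ (h.EM m2) (by
      rw [cj_mul, cj_sq t.1, (h.cE m1 (h.EM (h.PE m m1))).eq])) (Commute_cj g (h.cE (h.mE w η) (h.EM m2)))
    obtain ⟨j, f'⟩ := h.mul_el (0, 0, x) (0, 0, φ x) 0 i
    rw [h.u0, mul_one, ← f] at f'
    simp only [← cj_mul, cj_eq_one, cj_inj, sw, f', h.el_sq] at this
    rcases this with k | k | k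
    exacts [w0 (h.eq1 k).2, x0 (by simpa [qq] using (h.eq1 k).2), x1 (by simpa [qq] using (h.inj k).2)]
  obtain ⟨i, f⟩ := ea y
  obtain ⟨j, f'⟩ := h.mul_el (0, y, y ^ 5) (0, ψ y, ψ y ^ 5) 0 (0 + i)
  rw [← h.zz, ← mul_assoc (h.el (0, ψ y, _)), ← f] at f'
  have a1 : 𝐚 y * 𝐚 y = 1 := (h.el_sq _ 0).trans (by simp [qq, a2, h.u0])
  have c2 := h.el_sq ((0, y, y ^ 5) + (0, ψ y, ψ y ^ 5)) j
  rw [show qq _ _ _ _ _ = w by simp only [qq, ew, B, Prod.fst_add, Prod.snd_add, AddSubgroup.coe_add, ZeroMemClass.coe_zero]; grind] at c2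
  obtain ⟨k, f''⟩ := h.mul_el ((0, y, y ^ 5) + (0, ψ y, ψ y ^ 5)) (0, 0, w) j η
  rw [← f'] at c2 f''
  have cM := mul_mem (h.mM y (y ^ 5) 0) ((cj_norm m).2 (h.mM y (y ^ 5) 0))
  have cs : cj s (𝐚 y * cj s (𝐚 y)) = (𝐚 y * cj s (𝐚 y))⁻¹ := by
    rw [cj_mul, cj_sq t.1, mul_inv_rev, inv_eq_of_mul_eq_one_right a1, inv_eq_of_mul_eq_one_right (cj_mul_self a1 s)]
  generalize 𝐚 y * cj s (𝐚 y) = c at c2 f'' cM cs
  have cm := h.cE (h.mE w η) cM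
  have s2 : c * (h.el (0, 0, w) * u 0 η) * (c * (h.el (0, 0, w) * u 0 η)) = 1 := by rw [cm.mul_mul_mul_comm, c2, sw, h.z2]
  have aZ := h.nonT (gP _ (mul_mem cM (h.mM 0 w η)) (by
    rw [cj_mul, cs, eq_inv_of_mul_eq_one_left s2, ← cm.eq, mul_inv_rev, cj_mul, e, z, mul_assoc (h.el _), h.zz, mul_right_inj,
      eq_inv_iff_mul_eq_one, show w + η + φ η + φ η = η + w by grind, ← h.zz, ← mul_assoc (h.el _), mul_assoc _ (u 0 w),
      ← (h.cZ (h.MW (h.mM 0 w η)) w).eq, ← mul_assoc, sw, h.z2])) s2 (h.MT hS (mul_mem cM (h.mM 0 w η)))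
  obtain ⟨i', f₁⟩ := ea y'
  rw [e1] at f₁
  obtain ⟨μ, f₂⟩ := h.AZ (gP _ (zM i') (by rw [z, fx f₁]))
  obtain ⟨ν, f₃⟩ := h.AZ (gP _ (zM w) (by rw [z, w1]))
  obtain ⟨κ, k1, k2⟩ := h.exW μ
  have b1 : 𝐚 y' * 𝐚 y' = 1 := (h.el_sq _ 0).trans (by simp [qq, a2, h.u0])
  have bM := h.MW (h.mM y' (y' ^ 5) 0)
  have b2 : cj (𝐚 y') s = s * u 0 i' := by
    rw [show ∀ b, cj b s = s * (cj s⁻¹ b * b⁻¹) from fun b => by simp [cj, mul_assoc], inv_eq_of_mul_eq_one_right t.1, f₁,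
      (h.cZ bM i').eq, mul_inv_cancel_right]
  have := h.cH (n := κ⁻¹ * cj g (𝐚 y')) (h.cT hS (cj_eq_iff.1 (by
    rw [← cj_cj, cj_eq_iff', inv_inv, k2.2, mul_one, ← f₂, ← gs, ← cj_cj', b2, cj_mul]))) (ν := ν) (μ := ν) (by
    rw [← cj_cj, ← f₃, ← cj_cj', cj_of_comm (h.cZ bM w), f₃, cj_of_comm (h.cZ (inv_mem k1) ν)])
    (by rintro rfl; exact h.z1 w0 (cj_eq_one.1 (f₃.trans h.u0)))
  obtain ⟨ν', f₄⟩ := aZ
  have := cj_of_comm (commute_cj.1 (f₄ ▸ h.cZ (h.twoW ((mul_mem_cancel_left (inv_mem (h.WH k1))).1 this) ((two_of_sq b1).conj g)) ν'))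
  rw [f'', h.el_cj] at this
  exact e2 (by simpa [bb, B] using (h.el_inj this).2)

theorem zP (m : s ∈ 𝐏) (b : F8) : ∃ c, cj s (u 0 b) = u 0 c := have ⟨_, _, z, _⟩ := h.exψ m; ⟨_, z b⟩

variable (TO : ∀ x b, TT L (h.el (one hS, 0, x) * u 0 b))
include TO

theorem MP : 𝐌 ≤ 𝐏 := fun n m => norm_of fun w mw => by
  obtain ⟨γ, φ, a⟩ := h.exAct m
  obtain ⟨y, x, b, rfl⟩ := h.exM mw
  obtain ⟨i, f⟩ := a.el' (0, y, x) b
  obtain ⟨j, f'⟩ := a.el' (one hS, 0, 1) 0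
  have e := a.add (one hS, 0, 1) 𝐭
  rw [h.TT1 hS (p := γ (one hS, 0, 1)) (f' ▸ (TO 1 0).cj n), h.TT1 hS (a.tt hS 0)] at e
  simp only [Prod.mk_add_mk, h.s2, add_zero] at e
  have q := a.q (0, 0, 1)
  have k := a.bt (0, y, x) (0, 0, 1)
  rw [e] at q k
  simp only [qq, bb, ZeroMemClass.coe_zero, zero_add, one_mul, zero_mul, mul_zero, add_zero, a.z0, ne_eq, OfNat.ofNat_ne_zero,
    not_false_eq_true, zero_pow, mul_eq_zero] at q k
  exact ⟨_, ⟨Subtype.ext (k.resolve_right fun e => one_ne_zero (a.zinj (q.symm.trans (e.trans a.z0.symm)))), trivial⟩, i, f⟩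

theorem TN (m : s ∈ 𝐏) (t : TT L s) : ∃ g ∈ 𝐏, cj g s = ρ (one hS) := by
  obtain ⟨ψ, φ, z, ea, ee, eb⟩ := h.exψ m
  have c := h.KZ hS m t
  obtain rfl : φ = id := funext fun b => (h.inj ((z b).symm.trans (cj_of_comm (c b)))).2
  obtain ⟨e1, e2, -⟩ := (by decide +kernel : ∀ p q, B 1 ω = B p q → ∀ r, B 1 (ω ^ 2) = B p r → B ω (ω ^ 2) = B q r →
    p = 1 ∧ q = ω ∧ r = ω ^ 2) _ _ (eb _ _) _ (eb _ _) (eb _ _)
  obtain rfl : ψ = id := funext fun y => (by decide : ∀ y x, B y 1 = B x 1 → B y ω = B x ω → x = y) _ _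
    (by simpa [e1] using eb y 1) (by simpa [e2] using eb y ω)
  have sz : ∀ w ∈ h.M, ∃ i, cj s w = w * u 0 i := fun w mw => by
    obtain ⟨y, x, b, rfl⟩ := h.exM mw
    obtain ⟨i, f⟩ := ea y
    obtain ⟨j, f'⟩ := ee (y ^ 5 + x)
    obtain ⟨k, f''⟩ := h.mul_el (0, y, y ^ 5) (0, 0, y ^ 5 + x) 0 0
    simp only [Prod.mk_add_mk, add_zero, ← add_assoc, a2, zero_add, h.u0, mul_one, id] at f f' f''
    rw [eq_mul_inv_of_mul_eq f''.symm, mul_assoc, h.zi, h.zz, cj_mul, cj_mul, f, f', z, (h.cZ (h.elW _) i).symm.mul_mul_mul_comm]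
    exact ⟨i + j, by rw [mul_assoc, mul_assoc _ (u 0 (k + b)), h.zz, h.zz, h.zz, add_comm (i + j)]; rfl⟩
  obtain ⟨g, gs, gP⟩ := h.conjM hS m t
  have gZ : g ∈ normalizer (h.Z : Set G) := norm_of (by
    rintro _ ⟨b, rfl⟩
    exact h.AZ (gP _ (h.EM (h.zE b)) (z b)))
  have gW : h.M.map (MulAut.conj g).toMonoidHom ≤ h.W := by
    rintro _ ⟨w, mw, rfl⟩
    obtain ⟨i, f⟩ := sz w⁻¹ (inv_mem mw)
    obtain ⟨μ, f'⟩ := (cj_norm gZ).2 (h.mZ i)
    refine h.twoW (CB.Mu.H (μ := μ) ⟨fun b => ?_, fun r => ?_⟩) ((two_of h.W2 (h.MW mw)).conj g)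
    · obtain ⟨j, k⟩ := (cj_norm (inv_mem gZ)).2 (h.mZ b)
      exact commute_cj_left.2 (k ▸ h.cZ (h.MW mw) j)
    change cj (cj g w) _ = _
    by_cases e : r = 0
    · simp [e, h.r0, h.u0]
    rw [eq_one hS e, mul_one, ← f', ← gs, ← cj_cj', ← cj_mul, show cj w s = w * cj s w⁻¹ * s by simp [cj, mul_assoc], f,
      mul_inv_cancel_left, (c i).eq]
  have nT : ∀ x, TT L x → x ∉ h.M.map (MulAut.conj g).toMonoidHom := by
    rintro _ a ⟨w, mw, rfl⟩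
    exact h.MT hS mw (TT.of_cj a)
  refine ⟨g, norm_of fun w mw => by_contra fun n => ?_, gs⟩
  obtain ⟨p, b, f⟩ := h.exEl (gW (mem_map_of_mem _ mw))
  change cj g w = _ at f
  obtain ⟨y, x, i, rfl⟩ := h.exM mw
  obtain ⟨j, k⟩ := (by decide : ∀ y, ∃ j, ∀ y', B y y' ≠ j) y
  obtain ⟨x', k'⟩ := (cj_norm gZ).2 (h.mZ j)
  obtain ⟨i', f'⟩ := h.mul_el (one hS, 0, x') 𝐭 0 0
  obtain ⟨w', mw', f''⟩ := mul_mem_of_card gW (by rw [Transfer.card_conj]; exact card_le_two fun x a y b => h.idxM hS a b)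
    (mul_mem (h.elW _) (h.zW 0)) (mul_mem (h.elW _) (h.zW 0)) (nT _ (TO x' 0)) (nT _ (TO 0 0))
  obtain ⟨y', x'', i'', rfl⟩ := h.exM mw'
  change cj g _ = _ at f''
  have := congrArg (cj g) (h.el_cj (0, y, x) (0, y', x'') i i'')
  rw [cj_cj', ← h.zz i'', ← mul_assoc (h.el _), cj_mul _ _ (u 0 (bb ..)), f, f'', f', h.el_cj, ← h.zz, ← mul_assoc, mul_right_inj,
    eq_one hS (r := p.1) fun e => n ⟨p, ⟨e, trivial⟩, b, f⟩] at this
  simp only [bb, Prod.mk_add_mk, h.s2, add_zero, ZeroMemClass.coe_zero, one_mul, zero_mul, mul_zero, ne_eq, OfNat.ofNat_ne_zero,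
    not_false_eq_true, zero_pow, zero_add, ← k', cj_inj] at this
  exact k y' (h.inj this).2.symm

theorem case1 [IsSimpleGroup G] (hG : ¬ IsMulCommutative G) : False := by
  obtain ⟨T, hT⟩ := h.W2.exists_le_sylow
  have tW := h.PW (h.RP (h.rm (one hS)))
  have WP : h.W ≤ 𝐏 := le_normalizer.trans (h.MP hS TO)
  have le : (T : Subgroup G) ≤ 𝐏 := sylow_le T fun y my k => by
    obtain ⟨g, a, b⟩ := h.TN hS TO (k _ (WP tW) (hT tW)) ((h.TR hS).cj y)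
    have n := norm_of (Q := 𝐏 ⊓ T) fun a m => ⟨k a m.1 m.2, cj_mem my m.2⟩
    have c := commute_cj_left.1 (h.KZ hS ((cj_norm (inv_mem n)).2 ⟨WP tW, hT tW⟩).1 ((h.TR hS).cj y⁻¹) 1)
    rw [inv_inv] at c
    obtain ⟨ν, e⟩ := h.AZ (h.Pmax T.2 (h.PW.trans hT) (cj_mem my (hT (h.zW 1))) (h.tight _ (h.rK _) _ (h.r2 _) (h.TR hS).2.1
      (by rw [cj_of_comm c.symm]; exact h.rK (one hS))))
    obtain ⟨μ, e'⟩ := h.zP hS a ν
    exact (mul_mem_cancel_left a).1 (h.MP hS TO (h.HM (h.cH (h.cT hS (cj_eq_iff.1 (by rw [← cj_cj, b]))) (by rw [← cj_cj, e, e'])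
      one_ne_zero)))
  have mE : ∀ x, h.el (0, 0, x) ∈ h.E := fun x => by simpa [h.u0] using h.mE x 0
  have sq : ∀ x, h.el (0, 0, x) * h.el (0, 0, x) = u 0 x := fun x => by simpa [h.u0, qq] using h.el_sq (0, 0, x) 0
  have pw : ∀ x (a b : ZMod 4), h.el (0, 0, x) ^ (a + b).val = h.el (0, 0, x) ^ a.val * h.el (0, 0, x) ^ b.val := fun x a b => by
    rw [ZMod.val_add, ← pow_add, ← pow_eq_pow_mod _ (by rw [pow_mul _ 2 2, pow_two, pow_two, sq, h.z2])]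
  have cm := fun x y (i j : ℕ) => h.cE (pow_mem (mE x) i) (h.EM (pow_mem (mE y) j))
  let ι : Multiplicative (Fin 3 → ZMod 4) →* G := MonoidHom.mk' (fun a => h.el (0, 0, 1) ^ (a.toAdd 0).val *
    (h.el (0, 0, ω) ^ (a.toAdd 1).val * h.el (0, 0, ω ^ 2) ^ (a.toAdd 2).val)) fun a b => by
      simp only [toAdd_mul, Pi.add_apply, pw]
      rw [(cm ..).mul_mul_mul_comm, ((cm ..).mul_right (cm ..)).mul_mul_mul_comm]
  have m1 : h.el (0, 0, 1) ∈ ι.range := ⟨.ofAdd ![1, 0, 0], by simp [ι, show (1 : ZMod 4).val = 1 from rfl]⟩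
  have m2 : h.el (0, 0, ω) ∈ ι.range := ⟨.ofAdd ![0, 1, 0], by simp [ι, show (1 : ZMod 4).val = 1 from rfl]⟩
  have m3 : h.el (0, 0, ω ^ 2) ∈ ι.range := ⟨.ofAdd ![0, 0, 1], by simp [ι, show (1 : ZMod 4).val = 1 from rfl]⟩
  have zz := F8.ind (p := fun b => u 0 b ∈ ι.range) (sq _ ▸ mul_mem m1 m1) (sq _ ▸ mul_mem m2 m2) (sq _ ▸ mul_mem m3 m3)
    fun x y a b => h.zz x y ▸ mul_mem a b
  have ee := F8.ind (p := fun x => h.el (0, 0, x) ∈ ι.range) m1 m2 m3 fun x y a b => by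
    obtain ⟨i, e⟩ := h.el_mul (0, 0, x) (0, 0, y)
    have := mul_mem a b
    rw [e, mul_mem_cancel_right (zz i)] at this
    simpa using this
  have eq : ι.range = h.E := le_antisymm (by
    rintro _ ⟨a, rfl⟩
    exact mul_mem (pow_mem (mE _) _) (mul_mem (pow_mem (mE _) _) (pow_mem (mE _) _))) fun x m => by
    obtain ⟨i, j, rfl⟩ := h.exE m
    exact mul_mem (ee i) (zz j)
  obtain ⟨Y, a, b⟩ := det_sub ι ((MonoidHom.ker_eq_bot_iff ι).1 (card_eq_one.1 (by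
    have c := Nat.card_le_card_of_injective (fun x : F8 × F8 => (⟨_, h.mE x.1 x.2⟩ : h.E)) fun x y e =>
      have := h.el_inj (Subtype.mk.inj e)
      Prod.ext (congrArg (·.2.2) this.1) this.2
    have c' := ι.ker.card_mul_index
    have : 0 < Nat.card ι.ker := Nat.card_pos
    rw [index_ker, eq] at c'
    simp only [Nat.card_eq_fintype_card, Fintype.card_prod, F8.card, Fintype.card_multiplicative, Fintype.card_pi, ZMod.card,
      Finset.prod_const, Finset.card_univ, Fintype.card_fin] at c c' this ⊢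
    nlinarith)))
  rw [eq] at a b
  have nE : ∀ x ∈ 𝐏, x ∈ normalizer (h.E : Set G) := fun x m => norm_of fun _ => h.PE m
  obtain ⟨g, i, j⟩ := thompson hG T (Y := Y) (fun x i y j => a x (nE x (le i)) y (nE y (le j))) (h.TR hS).1
  obtain ⟨k, m, f⟩ := h.TN hS TO (le j) ((h.TR hS).cj g)
  refine b _ (fun e me => cj_inj (g := k) |>.1 ?_) i
  obtain ⟨x, i, e⟩ := h.exE (h.PE m me)
  obtain ⟨j, e'⟩ := h.el0 (one hS) 0 0
  rw [cj_cj', f, cj_inv, e, ← mul_one (ρ _), ← h.u0, e', h.el_cj, eq_inv_iff_mul_eq_one, ← h.zz, ← mul_assoc (h.el _), mul_assoc _ (u 0 _),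
    ← (h.cZ (h.MW (h.mM 0 x i)) _).eq, ← mul_assoc, h.el_sq, h.zz]
  simp [qq, bb, a2, h.u0]

end CW

theorem CB.small (h : CB L R u d g S ρ) (hS : ∀ x, x ∈ S ↔ x = 0 ∨ x = 1) [IsSimpleGroup G] (hG : ¬ IsMulCommutative G) : End u := by
  refine h.fin_no fun w a b => by_contra fun c => ?_
  obtain ⟨v, c, e, k⟩ := h.exCW a b c
  refine k.caseA hS hG fun n m => by_contra fun m' => ?_
  obtain ⟨-, rfl, rfl | rfl⟩ := (k.exAct m).choose_spec.choose_spec.good hS m'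
  exacts [k.case0 hS (k.TO hS m m') hG, k.case1 hS (k.TO1 hS m m') hG]

end Cfsg.Lib.SzS
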